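import Cfsg.Agent.CosetEnum.Fi23.Class
import Cfsg.Agent.Fi23Tri61.Members
import Cfsg.Agent.Fi23Type61.Data

/-!
Checks on the table of Fi23: two noncommuting members, their 351 common neighbours, seven of them
moving these, and vectors of norm one in dimension seven moved in the same way by reflections.
-/

set_option autoImplicit false
set_option maxRecDepth 100000

namespace CfsgLib.Fi23Type61

open CfsgLib.CosetEnum CfsgLib.Fi23Tri61

local notation "T" => Fi23.Tab.perm.T
local notation "L" => Fi23.Tab.perm.L

/-- The word of a member from a word of its point. -/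
def palW (v : List ℕ) : List ℕ := v ++ Fi23.zW ++ v.reverse

/-- a word on a point -/
noncomputable def run (w : List ℕ) (p : ℕ) : ℕ := runG w p

/-- The seven moving indices. -/
def gi (k : ℕ) : ℕ := Data.gens.getD k 0

/-- A move. -/
def mvN (k i : ℕ) : ℕ := Data.mvT k i

theorem roots_check : Nat.beq (run Fi23.zW 53) 53 && !Nat.beq (run Fi23.zW 1) 1 &&
    Nat.beq (Fi23.Tab.labH 53) 2 && Nat.beq (Fi23.Tab.labH 1) 1 = true := by decide +kernel

theorem letters_check : allBelow (fun x =>
    let p := ([11589, 8006, 8005, 8003, 8002, 8001, 8000, 8004, 8007] : List ℕ).getD x 0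
    Nat.blt p 31671 && Nat.beq (Fi23.Tab.labH p) 2) 9 = true := by decide +kernel

theorem cW_check : Data.cW.all (fun x => x.blt 10) && (run Data.cW 0).blt 31671 &&
    Nat.beq (Fi23.Tab.labH (run Data.cW 0)) 1 = true := by decide +kernel

theorem words_check : Data.words.all (fun v => v.all fun x => x.blt 10) &&
    allBelow (fun i => Nat.beq (run (Data.words.getD i []) 0) (Data.pts.getD i 0)) 351 &&
    Nat.beq Data.pts.length 351 && Nat.beq Data.words.length 351 = true := by decide +kernel

theorem common_check_a : allBelow (fun i =>
    Nat.beq (Fi23.Tab.labH (Data.pts.getD i 0)) 2 &&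
      Nat.beq (run (palW Data.cW) (Data.pts.getD i 0)) (Data.pts.getD i 0)) 351 = true := by
  decide +kernel

/-- the block of points checked at once -/
noncomputable def commonBlock (b : ℕ) : Bool := allBelow (fun t =>
    !(Nat.beq (Fi23.Tab.labH (2048 * b + t)) 2) ||
      !(Nat.beq (run (palW Data.cW) (2048 * b + t)) (2048 * b + t)) ||
      Data.pts.contains (2048 * b + t)) 2048

theorem nodup_check : allBelow (fun i =>
    Nat.beq (i + 1) 351 || Nat.blt (Data.pts.getD i 0) (Data.pts.getD (i + 1) 0)) 351 = true := by
  decide +kernel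

theorem link_check : allBelow (fun i => Nat.beq (Data.ptT i) (Data.pts.getD i 0) &&
    Nat.beq (Data.vecT i) (Data.vecs.getD i 0)) 351 = true := by decide +kernel

/-- the checks of one moving member -/
noncomputable def moveBlock (k : ℕ) : Bool := allBelow (fun i =>
    Nat.blt (mvN k i) 351 && Nat.beq (mvN k (mvN k i)) i &&
    Nat.beq (run (palW (Data.words.getD (gi k) [])) (Data.ptT i)) (Data.ptT (mvN k i))) 351 &&
  Nat.blt (gi k) 351

theorem move_0 : moveBlock 0 = true := by decide +kernel

theorem move_1 : moveBlock 1 = true := by decide +kernel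

theorem move_2 : moveBlock 2 = true := by decide +kernel

theorem move_3 : moveBlock 3 = true := by decide +kernel

theorem move_4 : moveBlock 4 = true := by decide +kernel

theorem move_5 : moveBlock 5 = true := by decide +kernel

theorem move_6 : moveBlock 6 = true := by decide +kernel

theorem steps_check : Data.steps.all (fun s => Nat.blt s.2.1 7 && Nat.blt s.2.2 351 &&
    Nat.beq (mvN s.2.1 s.2.2) s.1) &&
    (List.range Data.steps.length).all (fun n =>
      (Data.gens ++ (Data.steps.take n).map Prod.fst).contains (Data.steps.getD n (0, 0, 0)).2.2) &&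
    (List.range 351).all (fun i => (Data.gens ++ Data.steps.map Prod.fst).contains i) = true := by
  decide +kernel

/-- The vector with a given code. -/
def dig (m : ℕ) : Fin 7 → ZMod 3 := fun j => ((m / 3 ^ (j : ℕ) : ℕ) : ZMod 3)

/-- The vector of an index. -/
def lvec (i : ℕ) : Fin 7 → ZMod 3 := dig (Data.vecT i)

/-- The standard inner product. -/
def ip (u w : Fin 7 → ZMod 3) : ZMod 3 :=
  u 0 * w 0 + u 1 * w 1 + u 2 * w 2 + u 3 * w 3 + u 4 * w 4 + u 5 * w 5 + u 6 * w 6

/-- The image of a vector under a standard reflection. -/
def sref (u w : Fin 7 → ZMod 3) : Fin 7 → ZMod 3 := fun j => w j - 2 * ip u w * u j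

/-- A vector as a number. -/
def vcode (u : Fin 7 → ZMod 3) : ℕ :=
  (u 0).val + 3 * (u 1).val + 9 * (u 2).val + 27 * (u 3).val + 81 * (u 4).val + 243 * (u 5).val +
    729 * (u 6).val

/-- the vector checks of one moving member -/
noncomputable def vecBlock (k : ℕ) : Bool := allBelow (fun i =>
  Nat.beq (vcode (sref (lvec (gi k)) (lvec i))) (Data.vecT (mvN k i)) ||
    Nat.beq (vcode (-(sref (lvec (gi k)) (lvec i)))) (Data.vecT (mvN k i))) 351

theorem vec_0 : vecBlock 0 = true := by decide +kernel

theorem vec_1 : vecBlock 1 = true := by decide +kernel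

theorem vec_2 : vecBlock 2 = true := by decide +kernel

theorem vec_3 : vecBlock 3 = true := by decide +kernel

theorem vec_4 : vecBlock 4 = true := by decide +kernel

theorem vec_5 : vecBlock 5 = true := by decide +kernel

theorem vec_6 : vecBlock 6 = true := by decide +kernel

theorem vecs_norm_check : (List.range 351).all (fun i => decide (ip (lvec i) (lvec i) = 1) &&
    Nat.beq (vcode (lvec i)) (Data.vecs.getD i 0) &&
    Nat.beq (Data.vecs.idxOf (Data.vecs.getD i 0)) i) = true := by
  decide +kernel

theorem vecs_neg_check : (List.range 351).all (fun i =>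
    !(Data.vecs.contains (vcode (-lvec i)))) = true := by
  decide +kernel

theorem vecs_all_check : allBelow (fun m => !decide (ip (dig m) (dig m) = 1) ||
    Data.vecs.contains m || Data.vecs.contains (vcode (-dig m))) 2187 = true := by
  decide +kernel

theorem vecs_len : Data.vecs.length = 351 := by decide +kernel

end CfsgLib.Fi23Type61
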