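import Cfsg.Agent.Fi23Type61.Checks

/-!
The points fixed by both members.
-/

set_option autoImplicit false
set_option maxRecDepth 100000

namespace CfsgLib.Fi23Type61

theorem common_0 : commonBlock 0 = true := by decide +kernel

theorem common_1 : commonBlock 1 = true := by decide +kernel

theorem common_2 : commonBlock 2 = true := by decide +kernel

theorem common_3 : commonBlock 3 = true := by decide +kernel

theorem common_4 : commonBlock 4 = true := by decide +kernel

theorem common_5 : commonBlock 5 = true := by decide +kernel

theorem common_6 : commonBlock 6 = true := by decide +kernel

theorem common_7 : commonBlock 7 = true := by decide +kernel

theorem common_8 : commonBlock 8 = true := by decide +kernel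

theorem common_9 : commonBlock 9 = true := by decide +kernel

theorem common_10 : commonBlock 10 = true := by decide +kernel

theorem common_11 : commonBlock 11 = true := by decide +kernel

theorem common_12 : commonBlock 12 = true := by decide +kernel

theorem common_13 : commonBlock 13 = true := by decide +kernel

theorem common_14 : commonBlock 14 = true := by decide +kernel

theorem common_15 : commonBlock 15 = true := by decide +kernel

end CfsgLib.Fi23Type61
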