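import Cfsg.Agent.Fi23Type61.Nbr
import Cfsg.Agent.Fi23Type61.Common

/-!
The common neighbours of two noncommuting members of Fi23, modulo the centre of the group they
generate, as permutations of 351 indices.
-/

set_option autoImplicit false
set_option maxRecDepth 100000

namespace CfsgLib.Fi23Type61

open Cfsg CfsgLib.ThreeTransp CfsgLib.CosetEnum CfsgLib.Fi23Tri61

local notation "F" => Cfsg.Spor.Fi23
local notation "Pt" => Fin Fi23.Tab.perm.n

theorem cW_lt : ∀ x ∈ Data.cW, x < 10 := by
  have h := cW_check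
  simp only [Bool.and_eq_true, List.all_eq_true, Nat.blt, Nat.ble_eq] at h
  exact h.1.1

theorem cPt_lt : run Data.cW 0 < 31671 := by
  have h := cW_check
  simp only [Bool.and_eq_true, Nat.blt, Nat.ble_eq] at h
  exact h.1.2

/-- The second member. -/
noncomputable def cM : F := mem (Fi23.pt (run Data.cW 0) cPt_lt)

theorem cM_mem : cM ∈ D23 := mem_class _

theorem pi_cM_val (p : Pt) : ((Fi23.pi cM p : Pt) : ℕ) = run (palW Data.cW) p := by
  rw [cM, mem_word cW_lt (by rw [Fi23.pt_val]), pi_val _ (palW_lt cW_lt)]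
  rfl

theorem cM_not_commute : ¬ Commute Fi23.z0 cM := by
  intro h
  have hc := cW_check
  simp only [Bool.and_eq_true, Nat.beq_eq] at hc
  have hne : cM ≠ Fi23.z0 := fun e => by
    rw [cM, ← mem_P0] at e
    have := congrArg (fun p : Pt => Fi23.Tab.labH p) (mem_injective e)
    simp only [Fi23.pt_val, show ((Fi23.P0 : Pt) : ℕ) = 0 from rfl, Fi23.labH_zero] at this
    rw [this] at hc
    simp at hc
  have h2 := (nbr_iff _).1 (show mem (Fi23.pt (run Data.cW 0) cPt_lt) ∈ nbr D23 Fi23.z0 from
    ⟨mem_class _, hne, h⟩)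
  rw [Fi23.pt_val] at h2
  rw [h2] at hc
  simp at hc

/-- The common neighbours. -/
noncomputable def Y23 : Set F := nbr D23 Fi23.z0 ∩ nbr D23 cM

theorem common_all {b : ℕ} (hb : b < 16) : commonBlock b = true := by
  interval_cases b
  exacts [common_0, common_1, common_2, common_3, common_4, common_5, common_6, common_7, common_8,
    common_9, common_10, common_11, common_12, common_13, common_14, common_15]

theorem mem_Y23_iff (p : Pt) : mem p ∈ Y23 ↔ (p : ℕ) ∈ Data.pts := by
  constructor
  · intro h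
    have h2 := (nbr_iff p).1 h.1
    have hf : Fi23.pi cM p = p := pi_eq_self_of_commute h.2.2.2
    have hf' := congrArg Fin.val hf
    rw [pi_cM_val] at hf'
    have hp : (p : ℕ) < 31671 := p.2
    have hb := (Model.allBelow_iff _ _).1 (common_all (show (p : ℕ) / 2048 < 16 by omega))
      ((p : ℕ) % 2048) (by omega)
    rw [Nat.div_add_mod] at hb
    simp only [h2, hf', Nat.beq_refl, Bool.not_true, Bool.false_or] at hb
    exact List.contains_iff_mem.1 hb
  · intro h
    obtain ⟨i, hi, e⟩ := List.mem_iff_getElem.1 h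
    have hl := words_check
    simp only [Bool.and_eq_true, Nat.beq_eq, decide_eq_true_eq] at hl
    have hc := (Model.allBelow_iff _ _).1 common_check_a i (hl.1.2 ▸ hi)
    rw [List.getD_eq_getElem _ _ hi, e] at hc
    simp only [Bool.and_eq_true] at hc
    have h2 : Fi23.Tab.labH p = 2 := Nat.eq_of_beq_eq_true hc.1
    refine ⟨(nbr_iff p).2 h2, mem_class _, fun e' => ?_, ?_⟩
    · have hcc := cW_check
      simp only [Bool.and_eq_true, Nat.beq_eq] at hcc
      rw [cM] at e'
      have := congrArg (fun q : Pt => Fi23.Tab.labH q) (mem_injective e')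
      simp only [Fi23.pt_val] at this
      rw [← this, h2] at hcc
      simp at hcc
    · refine commute_of_pi_eq (Fin.ext ?_)
      rw [pi_cM_val]
      exact Nat.eq_of_beq_eq_true hc.2

/-- The words. -/
def lw (i : Fin 351) : List ℕ := Data.words.getD i []

theorem lw_lt (i : Fin 351) : ∀ x ∈ lw i, x < 10 := by
  have h := words_check
  simp only [Bool.and_eq_true, Nat.beq_eq, decide_eq_true_eq] at h
  intro x hx
  have hi : (i : ℕ) < Data.words.length := h.2.symm ▸ i.2
  rw [lw, List.getD_eq_getElem _ _ hi] at hx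
  have := List.all_eq_true.1 (List.all_eq_true.1 h.1.1.1 _ (List.getElem_mem hi)) x hx
  simpa [Nat.blt, Nat.ble_eq] using this

theorem pts_len : Data.pts.length = 351 := by
  have h := words_check
  simp only [Bool.and_eq_true, Nat.beq_eq, decide_eq_true_eq] at h
  exact h.1.2

theorem ptT_eq (i : Fin 351) : Data.ptT i = Data.pts[(i : ℕ)]'(pts_len.symm ▸ i.2) := by
  have h := (Model.allBelow_iff _ _).1 link_check i i.2
  simp only [Bool.and_eq_true] at h
  rw [Nat.eq_of_beq_eq_true h.1, List.getD_eq_getElem]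

theorem run_lw (i : Fin 351) : run (lw i) 0 = Data.ptT i := by
  have h := words_check
  simp only [Bool.and_eq_true] at h
  have := Nat.eq_of_beq_eq_true ((Model.allBelow_iff _ _).1 h.1.1.2 i i.2)
  rw [ptT_eq, ← List.getD_eq_getElem _ 0]
  exact this

theorem ptT_lt (i : Fin 351) : Data.ptT i < 31671 := by
  rw [← run_lw]
  have := (Fi23.pi (gword Fi23.g10 (lw i)) Fi23.P0).2
  rw [pi_val _ (lw_lt i)] at this
  exact this

/-- The point of an index. -/
noncomputable def pY (i : Fin 351) : Pt := Fi23.pt (Data.ptT i) (ptT_lt i)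

theorem pY_val (i : Fin 351) : ((pY i : Pt) : ℕ) = Data.ptT i := Fi23.pt_val _ _

theorem pY_mem (i : Fin 351) : mem (pY i) ∈ Y23 := by
  rw [mem_Y23_iff, pY_val, ptT_eq]
  exact List.getElem_mem _

theorem pY_mem_word (i : Fin 351) : mem (pY i) = gword Fi23.g10 (palW (lw i)) :=
  mem_word (lw_lt i) (by rw [run_lw, pY_val])

theorem ptT_mono (i : ℕ) (hi : i + 1 < 351) : Data.ptT i < Data.ptT (i + 1) := by
  have h := (Model.allBelow_iff _ _).1 nodup_check i (by omega)
  have h1 := (Model.allBelow_iff _ _).1 link_check i (by omega)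
  have h2 := (Model.allBelow_iff _ _).1 link_check (i + 1) hi
  simp only [Bool.and_eq_true] at h1 h2
  rw [Nat.eq_of_beq_eq_true h1.1, Nat.eq_of_beq_eq_true h2.1]
  simp only [Bool.or_eq_true, Nat.blt, Nat.ble_eq] at h
  rcases h with h | h
  · have := Nat.eq_of_beq_eq_true h
    omega
  · exact h

theorem ptT_lt_of_lt {i j : ℕ} (hij : i < j) (hj : j < 351) : Data.ptT i < Data.ptT j := by
  induction j, hij using Nat.le_induction with
  | base => exact ptT_mono i hj
  | succ j _ ih => exact (ih (by omega)).trans (ptT_mono j hj)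

theorem pY_inj : Function.Injective fun i => mem (pY i) := by
  intro i j h
  have h1 : Data.ptT i = Data.ptT j := by
    rw [← pY_val, ← pY_val, mem_injective h]
  rcases lt_trichotomy (i : ℕ) j with hlt | he | hlt
  · exact absurd h1 (ptT_lt_of_lt hlt j.2).ne
  · exact Fin.ext he
  · exact absurd h1 (ptT_lt_of_lt hlt i.2).ne'

theorem Y23_eq : Set.range (fun i => mem (pY i)) = Y23 := by
  refine Set.Subset.antisymm (Set.range_subset_iff.2 pY_mem) fun y hy => ?_
  obtain ⟨p, rfl⟩ := exists_mem hy.1.1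
  obtain ⟨i, hi, e⟩ := List.mem_iff_getElem.1 ((mem_Y23_iff p).1 hy)
  refine ⟨⟨i, pts_len ▸ hi⟩, congrArg mem (Fin.ext ?_)⟩
  rw [pY_val, ptT_eq]
  exact e

theorem moves_all {k : ℕ} (hk : k < 7) : moveBlock k = true := by
  interval_cases k
  exacts [move_0, move_1, move_2, move_3, move_4, move_5, move_6]

theorem moves_spec (k : Fin 7) (i : Fin 351) :
    mvN k i < 351 ∧ mvN k (mvN k i) = i ∧
      run (palW (Data.words.getD (gi k) [])) (Data.ptT i) = Data.ptT (mvN k i) ∧ gi k < 351 := by
  have h := moves_all k.2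
  simp only [moveBlock, Bool.and_eq_true] at h
  have h1 := (Model.allBelow_iff _ _).1 h.1 i i.2
  simp only [Bool.and_eq_true] at h1
  exact ⟨by simpa [Nat.blt, Nat.ble_eq] using h1.1.1, Nat.eq_of_beq_eq_true h1.1.2,
    Nat.eq_of_beq_eq_true h1.2, by simpa [Nat.blt, Nat.ble_eq] using h.2⟩

/-- A move of the indices. -/
def mvFun (k : Fin 7) (i : Fin 351) : Fin 351 :=
  if h : mvN k i < 351 then ⟨_, h⟩ else i

theorem mvFun_val (k : Fin 7) (i : Fin 351) : (mvFun k i : ℕ) = mvN k i := by
  rw [mvFun, dif_pos (moves_spec k i).1]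

theorem mvFun_invol (k : Fin 7) : Function.Involutive (mvFun k) := fun i => Fin.ext (by
  rw [mvFun_val, mvFun_val, (moves_spec k i).2.1])

/-- The permutations. -/
def mv (k : Fin 7) : Equiv.Perm (Fin 351) := Function.Involutive.toPerm (mvFun k) (mvFun_invol k)

/-- The indices of the generators. -/
def gen7 (k : Fin 7) : Fin 351 := ⟨gi k, (moves_spec k 0).2.2.2⟩

theorem pY_conj (k : Fin 7) (i : Fin 351) :
    mem (pY (gen7 k)) * mem (pY i) * (mem (pY (gen7 k)))⁻¹ = mem (pY (mv k i)) := by
  rw [conj_mem, pY_mem_word]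
  refine congrArg mem (Fin.ext ?_)
  rw [pi_val _ (palW_lt (lw_lt _)), pY_val, pY_val]
  show run (palW (lw (gen7 k))) (Data.ptT i) = Data.ptT (mvFun k i)
  rw [mvFun_val]
  exact (moves_spec k i).2.2.1

theorem gens_reach {P : Fin 351 → Prop} (hg : ∀ k, P (gen7 k))
    (hm : ∀ k i, P i → P (mv k i)) (i : Fin 351) : P i := by
  have h := steps_check
  simp only [Bool.and_eq_true, List.all_eq_true, List.mem_range, Nat.beq_eq, decide_eq_true_eq, Nat.blt, Nat.ble_eq,
    List.contains_iff_mem] at h
  obtain ⟨⟨hs, hord⟩, hall⟩ := h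
  have hgl : Data.gens.length = 7 := rfl
  have key : ∀ n ≤ Data.steps.length, ∀ x ∈ Data.gens ++ (Data.steps.take n).map Prod.fst,
      ∀ hx : x < 351, P ⟨x, hx⟩ := by
    intro n
    induction n with
    | zero =>
      intro _ x hx hx'
      simp only [List.take_zero, List.map_nil, List.append_nil] at hx
      obtain ⟨k, hk, rfl⟩ := List.mem_iff_getElem.1 hx
      have := hg ⟨k, hgl ▸ hk⟩
      rwa [show gen7 ⟨k, hgl ▸ hk⟩ = (⟨Data.gens[k], hx'⟩ : Fin 351) from
        Fin.ext (List.getD_eq_getElem _ _ hk)] at this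
    | succ n ih =>
      intro hn x hx hx'
      rw [List.take_succ_eq_append_getElem (by omega : n < Data.steps.length), List.map_append,
        ← List.append_assoc, List.mem_append, List.map_singleton, List.mem_singleton] at hx
      rcases hx with hx | hx
      · exact ih (by omega) x hx hx'
      · obtain ⟨⟨hk, hj⟩, he⟩ := hs _ (List.getElem_mem (by omega : n < Data.steps.length))
        have hjP := ih (by omega) _ (by
          have := hord n (by omega)
          rwa [List.getD_eq_getElem _ _ (by omega : n < Data.steps.length)] at this) hj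
        have := hm ⟨_, hk⟩ _ hjP
        have e : (mv ⟨_, hk⟩ ⟨_, hj⟩ : ℕ) = x := by
          rw [show mv ⟨_, hk⟩ ⟨_, hj⟩ = mvFun ⟨_, hk⟩ ⟨_, hj⟩ from rfl, mvFun_val, he, hx]
        rwa [show mv ⟨_, hk⟩ ⟨_, hj⟩ = (⟨x, hx'⟩ : Fin 351) from Fin.ext e] at this
  exact key _ le_rfl i (by rw [List.take_length]; exact hall i i.2) i.2

theorem lgroup_quot :
    Nonempty (↥(Subgroup.closure Y23) ⧸ Subgroup.center ↥(Subgroup.closure Y23) ≃*
      ↥(Subgroup.closure (Set.range mv))) := by
  have hm : ∀ i, mem (pY i) ∈ Subgroup.closure Y23 := fun i => Subgroup.subset_closure (pY_mem i)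
  set x : Fin 351 → ↥(Subgroup.closure Y23) := fun i => ⟨mem (pY i), hm i⟩
  have htop : Subgroup.closure (Set.range x) = ⊤ := by
    refine Subgroup.map_injective (Subgroup.closure Y23).subtype_injective ?_
    rw [MonoidHom.map_closure, ← MonoidHom.range_eq_map, Subgroup.range_subtype, ← Set.range_comp]
    exact congrArg Subgroup.closure Y23_eq
  refine FischerRecog58.quot_range (x := x) (s := gen7)
    (fun i j h => pY_inj (congrArg Subtype.val h)) htop ?_ fun k i => Subtype.ext (pY_conj k i)
  rw [eq_top_iff, ← htop, Subgroup.closure_le]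
  rintro _ ⟨i, rfl⟩
  refine gens_reach (P := fun i => x i ∈ Subgroup.closure (Set.range (x ∘ gen7)))
    (fun k => Subgroup.subset_closure ⟨k, rfl⟩) (fun k i hi => ?_) i
  rw [← show x (gen7 k) * x i * (x (gen7 k))⁻¹ = x (mv k i) from Subtype.ext (pY_conj k i)]
  have hk : x (gen7 k) ∈ Subgroup.closure (Set.range (x ∘ gen7)) :=
    Subgroup.subset_closure ⟨k, rfl⟩
  exact mul_mem (mul_mem hk hi) (inv_mem hk)

end CfsgLib.Fi23Type61
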