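import Cfsg.Agent.Fi23Type61.Checks
import Cfsg.Agent.FischerRecog58.RModel
import Cfsg.Agent.ThreeTransp.M23Primitive
import Cfsg.Agent.ThreeTransp.M24Facts

/-!
The neighbours of the central element of a point stabiliser in Fi23 generate it, and modulo the
centre they give Fi22 with its class of transpositions.
-/

set_option autoImplicit false
set_option maxRecDepth 100000

namespace CfsgLib.Fi23Type61

open Cfsg CfsgLib.ThreeTransp CfsgLib.CosetEnum CfsgLib.Fi23Tri61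

local notation "F" => Cfsg.Spor.Fi23
local notation "Pt" => Fin Fi23.Tab.perm.n

/-- The class. -/
def D23 : Set F := conjugatesOf Fi23.z0

theorem ttg23 : IsThreeTranspositionGroup D23 := by
  obtain ⟨D, hD, -, -⟩ := Fi23.realization
  obtain ⟨hset, ⟨z, hz, hzeq⟩, hgen⟩ := hD
  refine ⟨⟨fun d hd => ?_, fun d hd e he => ?_⟩, fun g d hd => ?_, ?_⟩
  · obtain ⟨g, rfl⟩ := isConj_iff.1 hd
    refine orderOf_eq_prime ?_ ?_
    · rw [conj_pow, conj_eq_one_iff, pow_two, Fi23.z0_sq]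
    · rw [ne_eq, conj_eq_one_iff]
      exact Fi23.z0_ne
  · obtain ⟨g, rfl⟩ := isConj_iff.1 hd
    obtain ⟨k, rfl⟩ := isConj_iff.1 he
    have e' : g * Fi23.z0 * g⁻¹ * (k * Fi23.z0 * k⁻¹) =
        g * (Fi23.z0 * ((g⁻¹ * k) * Fi23.z0 * (g⁻¹ * k)⁻¹)) * g⁻¹ := by group
    rw [e', conj_pow, conj_pow, conj_eq_one_iff, conj_eq_one_iff]
    exact Fi23.mul_conj_pow _
  · exact IsConj.trans hd (isConj_iff.2 ⟨g, rfl⟩)
  · have := Fi23.simple
    have hn : (Subgroup.closure D23).Normal := by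
      refine ⟨fun x hx g => ?_⟩
      have hle : Subgroup.closure D23 ≤
          (Subgroup.closure D23).comap (MulAut.conj g).toMonoidHom := by
        rw [Subgroup.closure_le]
        exact fun y hy => Subgroup.subset_closure (IsConj.trans hy (isConj_iff.2 ⟨g, rfl⟩))
      exact hle hx
    refine (IsSimpleGroup.eq_bot_or_eq_top_of_normal _ hn).resolve_left fun h => Fi23.z0_ne ?_
    have hm : Fi23.z0 ∈ Subgroup.closure D23 := Subgroup.subset_closure mem_conjugatesOf_self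
    rwa [h, Subgroup.mem_bot] at hm

theorem mem_P0 : mem Fi23.P0 = Fi23.z0 := by
  rw [mem_eq (g := 1) (by rw [map_one, Equiv.Perm.one_apply])]
  group

theorem palW_lt {v : List ℕ} (hv : ∀ x ∈ v, x < 10) : ∀ x ∈ palW v, x < 10 := by
  intro x hx
  simp only [palW, List.mem_append, List.mem_reverse] at hx
  rcases hx with (h | h) | h
  exacts [hv x h, Fi23.zW_lt10 x h, hv x h]

/-- The member of a word is the value of its long word. -/
theorem mem_word {v : List ℕ} (hv : ∀ x ∈ v, x < 10) {p : Pt}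
    (hp : run v 0 = (p : ℕ)) : mem p = gword Fi23.g10 (palW v) := by
  rw [mem_eq (g := gword Fi23.g10 v) (Fin.ext (by rw [pi_val _ hv]; exact hp)), palW,
    Fi23.gword_app, Fi23.gword_app]
  have e := gword_inverse Fi23.g10 (fun y => y) Fi23.g10_inv v
  rw [List.map_id'] at e
  rw [e]
  rfl

theorem pi_z0_val (p : Pt) : ((Fi23.pi Fi23.z0 p : Pt) : ℕ) = run Fi23.zW p :=
  pi_val _ Fi23.zW_lt10 p

theorem nbr_iff (p : Pt) : mem p ∈ nbr D23 Fi23.z0 ↔ Fi23.Tab.labH p = 2 := by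
  have hr := roots_check
  simp only [Bool.and_eq_true, Bool.not_eq_true', ← Bool.not_eq_true, Nat.beq_eq] at hr
  obtain ⟨⟨⟨h53, h1⟩, l53⟩, l1⟩ := hr
  have l1' : Fi23.Tab.labH 1 = 1 := by simpa using l1
  have hfix : ∀ q r : Pt, Fi23.Tab.labH q = Fi23.Tab.labH r →
      (Fi23.pi Fi23.z0 q = q ↔ Fi23.pi Fi23.z0 r = r) := by
    intro q r h
    have horb : q ∈ MulAction.orbit (Fi23.Hs.map Fi23.pi) r := by rw [Fi23.orbit_H]; exact h
    obtain ⟨⟨_, a, ha, rfl⟩, rfl⟩ := horb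
    have hc : Fi23.pi Fi23.z0 * Fi23.pi a = Fi23.pi a * Fi23.pi Fi23.z0 := by
      rw [← map_mul, ← map_mul, Fi23.commute_of_mem ha]
    show Fi23.pi Fi23.z0 (Fi23.pi a r) = Fi23.pi a r ↔ _
    rw [← Equiv.Perm.mul_apply, hc, Equiv.Perm.mul_apply, (Fi23.pi a).injective.eq_iff]
  have hcomm : Commute Fi23.z0 (mem p) ↔ Fi23.pi Fi23.z0 p = p :=
    ⟨fun h => pi_eq_self_of_commute h, fun h => commute_of_pi_eq h⟩
  constructor
  · rintro ⟨-, hne, hc⟩
    rcases Fi23.labH_cases p with h | h | h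
    · exact absurd (by rw [show p = Fi23.P0 from Fin.ext h, mem_P0]) hne
    · exfalso
      have := (hfix p (Fi23.pt 1) (by rw [Fi23.pt_val, l1', h])).1 (hcomm.1 hc)
      have := congrArg Fin.val this
      rw [pi_z0_val, Fi23.pt_val] at this
      exact h1 this
    · exact h
  · intro h
    refine ⟨mem_class p, fun e => ?_, hcomm.2 ?_⟩
    · rw [← mem_P0] at e
      rw [mem_injective e, show ((Fi23.P0 : Pt) : ℕ) = 0 from rfl, Fi23.labH_zero] at h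
      omega
    · refine (hfix p (Fi23.pt 53) (by rw [Fi23.pt_val, l53, h])).2 (Fin.ext ?_)
      rw [pi_z0_val, Fi23.pt_val, h53]

/-- words to the points of the nine letters -/
def letW : List (List ℕ) :=
  [[1, 2, 3, 4, 5, 6, 9, 7, 3, 4, 2, 3, 7, 5, 6, 4, 5, 3, 4, 2, 3, 7, 0, 1, 2, 3, 4, 5, 6, 9],
   [2, 3, 4, 5, 6, 9, 7, 3, 4, 2, 3, 7, 5, 6, 4, 5, 3, 4, 2, 3, 7, 1, 2, 3, 4, 5, 6, 9],
   [3, 4, 5, 6, 9, 7, 3, 4, 1, 2, 3, 7, 5, 6, 4, 5, 3, 4, 2, 3, 7, 1, 2, 3, 4, 5, 6, 9],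
   [4, 5, 6, 9, 7, 2, 3, 4, 1, 2, 3, 7, 5, 6, 4, 5, 3, 4, 2, 3, 7, 1, 2, 3, 4, 5, 6, 9],
   [5, 6, 9, 3, 7, 2, 3, 4, 1, 2, 3, 7, 5, 6, 4, 5, 3, 4, 2, 3, 7, 1, 2, 3, 4, 5, 6, 9],
   [6, 9, 4, 3, 7, 2, 3, 4, 1, 2, 3, 7, 5, 6, 4, 5, 3, 4, 2, 3, 7, 1, 2, 3, 4, 5, 6, 9],
   [9, 5, 4, 3, 7, 2, 3, 4, 1, 2, 3, 7, 5, 6, 4, 5, 3, 4, 2, 3, 7, 1, 2, 3, 4, 5, 6, 9],
   [3, 4, 5, 6, 9, 2, 3, 4, 1, 2, 3, 7, 5, 6, 4, 5, 3, 4, 2, 3, 7, 1, 2, 3, 4, 5, 6, 9],
   [7, 3, 4, 5, 6, 9, 2, 3, 7, 4, 5, 3, 4, 2, 3, 7, 8, 6, 5, 4, 3, 7, 2, 3, 4, 5, 6, 9]]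

theorem letW_check : allBelow (fun x =>
    let v := letW.getD x []
    v.all (fun y => y.blt 10) && Nat.blt (run v 0) 31671 && Nat.beq (Fi23.Tab.labH (run v 0)) 2 &&
    Fi23.basePts.all (fun i => Nat.beq (runT Fi23.Tab.perm.T Fi23.Tab.perm.L (palW v) i)
      (runT Fi23.Tab.perm.T Fi23.Tab.perm.L [x] i))) 9 = true := by decide +kernel

theorem letter_nbr {x : ℕ} (hx : x < 9) : Fi23.g10 x ∈ nbr D23 Fi23.z0 := by
  have h := (Model.allBelow_iff _ _).1 letW_check x hx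
  simp only [Bool.and_eq_true] at h
  obtain ⟨⟨⟨h1, h2⟩, h3⟩, h4⟩ := h
  have hv : ∀ y ∈ letW.getD x [], y < 10 := fun y hy => by
    simpa [Nat.blt, Nat.ble_eq] using List.all_eq_true.1 h1 y hy
  have hlt : run (letW.getD x []) 0 < 31671 := by simpa [Nat.blt, Nat.ble_eq] using h2
  have e := Fi23.gword_eq_of_base (palW_lt hv)
    (fun y hy => by rw [List.mem_singleton.1 hy]; omega) h4
  rw [Fi23.gword_one, ← mem_word hv (p := Fi23.pt _ hlt) (by rw [Fi23.pt_val])] at e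
  rw [← e, nbr_iff, Fi23.pt_val]
  exact Nat.eq_of_beq_eq_true h3

theorem closure_nbr : Subgroup.closure (nbr D23 Fi23.z0) = Fi23.Hs := by
  refine le_antisymm ((Subgroup.closure_le _).2 fun y hy => Fi23.mem_Hs_of_commute hy.2.2) ?_
  rw [Fi23.Hs, Subgroup.closure_le]
  rintro _ ⟨x, hx, rfl⟩
  exact Subgroup.subset_closure (letter_nbr hx)

theorem exists_cover : ∃ φ : Fi23.Hs →* Cfsg.Spor.Fi22, Function.Surjective φ ∧
    φ.ker = Subgroup.center Fi23.Hs ∧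
    ∀ x (hx : x < 9), φ ⟨Fi23.g10 x, Fi23.g10_mem_Hs hx⟩ = Fi22.g9 x := by
  have := Fi23.finite_fi23
  let e1 : Fi23.Hs ≃* Fi23.Gamma :=
    ((Subgroup.equivMapOfInjective Fi23.Hs Fi23.pi Fi23.pi_injective).trans
      (MulEquiv.subgroupCongr Fi23.toPts_range.symm)).trans
      (MonoidHom.ofInjective Fi23.toPts_injective).symm
  let e2 : Cfsg.Spor.Fi22 ≃* Fi23.toSub.range :=
    (MonoidHom.ofInjective Fi22.pi_injective).trans (MulEquiv.subgroupCongr Fi23.toSub_range.symm)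
  let φ : Fi23.Hs →* Cfsg.Spor.Fi22 :=
    e2.symm.toMonoidHom.comp (Fi23.toSub.rangeRestrict.comp e1.toMonoidHom)
  have hφ : Function.Surjective φ :=
    e2.symm.surjective.comp (Fi23.toSub.rangeRestrict_surjective.comp e1.surjective)
  have hker : Nat.card φ.ker = 2 := by
    have h := φ.ker.card_mul_index
    rw [Subgroup.index_ker, MonoidHom.range_eq_top.2 hφ, Subgroup.card_top, Fi22.card_fi22,
      Fi23.index_and_card_Hs.2] at h
    exact Nat.eq_of_mul_eq_mul_right (show 0 < 64561751654400 by norm_num)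
      (h.trans (show 129123503308800 = 2 * 64561751654400 by norm_num))
  refine ⟨φ, hφ, ?_, fun x hx => ?_⟩
  · refine (Subgroup.eq_of_le_of_card_ge ?_ ?_).symm
    · intro a ha
      have hac : φ a ∈ Subgroup.center Cfsg.Spor.Fi22 := Subgroup.mem_center_iff.2 fun g => by
        obtain ⟨b, rfl⟩ := hφ g
        rw [← map_mul, ← map_mul, Subgroup.mem_center_iff.1 ha b]
      rw [FischerRecog58.center22, Subgroup.mem_bot] at hac
      exact MonoidHom.mem_ker.2 hac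
    · rw [hker, Fi23.nonsplit_Hs.1]
  · show e2.symm (Fi23.toSub.rangeRestrict (e1 ⟨Fi23.g10 x, Fi23.g10_mem_Hs hx⟩)) = _
    rw [MulEquiv.symm_apply_eq]
    refine Subtype.ext ?_
    have hpair : (Fi23.perm_ok.sigma x, Fi22.perm_ok.sigma x) ∈ Fi23.Gamma :=
      Subgroup.subset_closure ⟨x, hx, rfl⟩
    have he : e1 ⟨Fi23.g10 x, Fi23.g10_mem_Hs hx⟩ = ⟨_, hpair⟩ := by
      apply Fi23.toPts_injective
      show Fi23.toPts ((MonoidHom.ofInjective Fi23.toPts_injective).symm _) = _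
      rw [MonoidHom.apply_ofInjective_symm]
      show Fi23.pi (Fi23.g10 x) = Fi23.perm_ok.sigma x
      rw [Fi23.g10, letterVal_lt Fi23.gen (by omega), Fi23.pi_gen (by omega)]
    rw [he]
    show Fi22.perm_ok.sigma x = Fi22.pi (Fi22.g9 x)
    rw [Fi22.g9, letterVal_lt Fi22.gen hx, Fi22.pi_gen hx]

theorem type22_nbr : IsOfTypeM22
    (↥(Subgroup.closure (nbr D23 Fi23.z0)) ⧸ Subgroup.center ↥(Subgroup.closure (nbr D23 Fi23.z0)))
    (nbrBar D23 Fi23.z0) := by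
  obtain ⟨φ, hφ, hk, hgen⟩ := exists_cover
  obtain ⟨e0, he0⟩ := quotCenterCongr (MulEquiv.subgroupCongr closure_nbr)
  obtain ⟨f, hf⟩ : ∃ f : (↥(Subgroup.closure (nbr D23 Fi23.z0)) ⧸
      Subgroup.center ↥(Subgroup.closure (nbr D23 Fi23.z0))) ≃* Cfsg.Spor.Fi22,
      ∀ a, f (QuotientGroup.mk a) = φ (MulEquiv.subgroupCongr closure_nbr a) :=
    ⟨e0.trans ((QuotientGroup.quotientMulEquivOfEq hk.symm).trans
      (QuotientGroup.quotientKerEquivOfSurjective φ hφ)), fun a => by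
        rw [MulEquiv.trans_apply, he0]
        rfl⟩
  refine typeM22_map f.symm ?_ FischerRecog58.type22
  have h0 := letter_nbr (x := 0) (by omega)
  have e0' : φ ⟨Fi23.g10 0, Fi23.g10_mem_Hs (by omega)⟩ = Fi22.U6.a0 := hgen 0 (by omega)
  suffices hh : f '' nbrBar D23 Fi23.z0 = FischerRecog58.D22 by
    rw [← hh, ← Set.image_comp]
    simp
  refine Set.Subset.antisymm ?_ ?_
  · rintro _ ⟨_, ⟨x, hx, rfl⟩, rfl⟩
    rw [hf]
    obtain ⟨p, hp⟩ := exists_mem hx.1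
    obtain ⟨q, hq⟩ := exists_mem h0.1
    have lp : Fi23.Tab.labH p = 2 := (nbr_iff p).1 (hp ▸ hx)
    have lq : Fi23.Tab.labH q = 2 := (nbr_iff q).1 (hq ▸ h0)
    have horb : p ∈ MulAction.orbit (Fi23.Hs.map Fi23.pi) q := by
      rw [Fi23.orbit_H]; exact lp.trans lq.symm
    obtain ⟨⟨_, a, ha, rfl⟩, hpq⟩ := horb
    have hxa : (x : F) = a * Fi23.g10 0 * a⁻¹ := by
      rw [← hp, ← hq, conj_mem]
      exact congrArg mem hpq.symm
    refine FischerRecog58.mem_D22.2 ⟨φ ⟨a, ha⟩, ?_⟩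
    rw [← e0', ← map_inv, ← map_mul, ← map_mul]
    exact congrArg φ (Subtype.ext hxa.symm)
  · intro y hy
    obtain ⟨g, rfl⟩ := FischerRecog58.mem_D22.1 hy
    obtain ⟨a, rfl⟩ := hφ g
    have hm : (a : F) * Fi23.g10 0 * (a : F)⁻¹ ∈ nbr D23 Fi23.z0 := by
      refine ⟨ttg23.2.1 _ _ h0.1, fun e => h0.2.1 ?_, ?_⟩
      · have hc := Fi23.commute_of_mem a.2
        calc Fi23.g10 0 = (a : F)⁻¹ * ((a : F) * Fi23.g10 0 * (a : F)⁻¹) * a := by group
          _ = (a : F)⁻¹ * (Fi23.z0 * a) := by rw [e, mul_assoc]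
          _ = Fi23.z0 := by rw [hc, inv_mul_cancel_left]
      · have hc : Commute Fi23.z0 (a : F) := Fi23.commute_of_mem a.2
        exact (hc.mul_right h0.2.2).mul_right hc.inv_right
    refine ⟨_, ⟨⟨_, Subgroup.subset_closure hm⟩, hm, rfl⟩, ?_⟩
    rw [hf, ← e0', ← map_inv, ← map_mul, ← map_mul]
    exact congrArg φ (Subtype.ext rfl)

end CfsgLib.Fi23Type61
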