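import Cfsg.Agent.Fi23Type61.LGroup
import Cfsg.Agent.ThreeTransp.Refl3

/-!
The reflection group of the standard seven dimensional form over three elements permutes its 351
centres like the common neighbours; hence the presented Fi23 is of type M(23).
-/

set_option autoImplicit false
set_option maxRecDepth 100000

namespace CfsgLib.Fi23Type61

open Cfsg CfsgLib.ThreeTransp CfsgLib.CosetEnum CfsgLib.Fi23Tri61

instance fact3_type61 : Fact (Nat.Prime 3) := ⟨Nat.prime_three⟩

/-- The standard form. -/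
noncomputable def q7 : QuadraticForm (ZMod 3) (Fin 7 → ZMod 3) :=
  QuadraticMap.weightedSumSquares (ZMod 3) (fun _ : Fin 7 => (1 : ZMod 3))

theorem q7_apply (u : Fin 7 → ZMod 3) : q7 u = ip u u := by
  simp [q7, QuadraticMap.weightedSumSquares_apply, Fin.sum_univ_seven, ip]

theorem polar_q7 (x y : Fin 7 → ZMod 3) : QuadraticMap.polar q7 x y = 2 * ip x y := by
  simp only [QuadraticMap.polar, q7_apply, ip, Pi.add_apply]
  ring

theorem ip_single (x : Fin 7 → ZMod 3) (i : Fin 7) : ip x (Pi.single i 1) = x i := by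
  fin_cases i <;> simp [ip]

theorem q7_nondeg : (QuadraticMap.polarBilin q7).Nondegenerate := by
  have h : ∀ x, (∀ y, QuadraticMap.polar q7 x y = 0) → x = 0 := by
    intro x hx
    funext i
    have h2 := hx (Pi.single i 1)
    rw [polar_q7, ip_single] at h2
    have : ∀ a : ZMod 3, 2 * a = 0 → a = 0 := by decide
    exact this _ h2
  exact ⟨fun x hx => h x hx, fun y hy => h y fun x => by rw [QuadraticMap.polar_comm]; exact hy x⟩

theorem q7_det : Cfsg.polarGramDet (⇑q7) = -1 := by
  have h : (Matrix.of fun i j : Fin 7 =>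
      QuadraticMap.polar q7 (Pi.single i 1) (Pi.single j 1)) =
      Matrix.diagonal fun _ => (2 : ZMod 3) := by
    ext i j
    rw [Matrix.of_apply, polar_q7, ip_single, Matrix.diagonal_apply]
    rcases eq_or_ne i j with rfl | hne
    · simp
    · simp [hne, Ne.symm hne]
  rw [Cfsg.polarGramDet, h, Matrix.det_diagonal]
  decide

theorem sref_eq {u w : Fin 7 → ZMod 3} (hu : q7 u = 1) :
    Matrix.mulVec (Cfsg.reflectionMatrix (⇑q7) u) w = sref u w := by
  rw [CfsgLib.TTRefl3.refl_mulVec, hu, inv_one, one_mul, polar_q7]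
  funext j
  simp only [Pi.sub_apply, Pi.smul_apply, smul_eq_mul, sref]

theorem vcode_inj : Function.Injective vcode := by
  intro u w h
  have := (u 0).val_lt; have := (u 1).val_lt; have := (u 2).val_lt; have := (u 3).val_lt
  have := (u 4).val_lt; have := (u 5).val_lt; have := (u 6).val_lt
  have := (w 0).val_lt; have := (w 1).val_lt; have := (w 2).val_lt; have := (w 3).val_lt
  have := (w 4).val_lt; have := (w 5).val_lt; have := (w 6).val_lt
  simp only [vcode] at h
  funext i
  refine ZMod.val_injective 3 ?_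
  fin_cases i <;> simp only [Fin.zero_eta, Fin.mk_one, Fin.reduceFinMk] <;> omega

theorem vcode_lt (u : Fin 7 → ZMod 3) : vcode u < 2187 := by
  have := (u 0).val_lt; have := (u 1).val_lt; have := (u 2).val_lt; have := (u 3).val_lt
  have := (u 4).val_lt; have := (u 5).val_lt; have := (u 6).val_lt
  simp only [vcode]
  omega

theorem dig_vcode (u : Fin 7 → ZMod 3) : dig (vcode u) = u := by
  have h0 := (u 0).val_lt; have h1 := (u 1).val_lt; have h2 := (u 2).val_lt; have h3 := (u 3).val_lt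
  have h4 := (u 4).val_lt; have h5 := (u 5).val_lt; have h6 := (u 6).val_lt
  funext i
  refine ZMod.val_injective 3 ?_
  simp only [dig, ZMod.val_natCast, vcode]
  fin_cases i <;> simp only [Fin.zero_eta, Fin.mk_one, Fin.reduceFinMk, Fin.isValue, Fin.val_zero,
    Fin.val_one, Fin.val_two, pow_zero, pow_one] <;> omega

theorem lvec_norm (i : Fin 351) : q7 (lvec i) = 1 := by
  rw [q7_apply]
  have h := List.all_eq_true.1 vecs_norm_check i (List.mem_range.2 i.2)
  simp only [Bool.and_eq_true] at h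
  exact of_decide_eq_true h.1.1

theorem lvec_code (i : Fin 351) : vcode (lvec i) = Data.vecs.getD i 0 := by
  have h := List.all_eq_true.1 vecs_norm_check i (List.mem_range.2 i.2)
  simp only [Bool.and_eq_true] at h
  exact Nat.eq_of_beq_eq_true h.1.2

theorem lvec_code_mem (i : Fin 351) : vcode (lvec i) ∈ Data.vecs := by
  rw [lvec_code, List.getD_eq_getElem _ _ (vecs_len.symm ▸ i.2 : (i : ℕ) < Data.vecs.length)]
  exact List.getElem_mem _

theorem lvec_inj : Function.Injective fun i : Fin 351 => lvec i := by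
  intro i j h
  have hh : ∀ k : Fin 351, Data.vecs.idxOf (Data.vecs.getD k 0) = k := fun k => by
    have := List.all_eq_true.1 vecs_norm_check k (List.mem_range.2 k.2)
    simp only [Bool.and_eq_true] at this
    exact Nat.eq_of_beq_eq_true this.2
  have h1 := congrArg vcode h
  simp only [lvec_code] at h1
  exact Fin.ext (by rw [← hh i, h1, hh j])

theorem lvec_ne (i : Fin 351) : q7 (lvec i) ≠ 0 := by rw [lvec_norm]; exact one_ne_zero

/-- The reflections. -/
noncomputable def rfx (i : Fin 351) : ↥(Cfsg.isometryGroup (ZMod 3) (⇑q7)) :=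
  CfsgLib.TTRefl3.refl q7 (lvec_ne i)

theorem rmat_neg (u : Fin 7 → ZMod 3) :
    Cfsg.reflectionMatrix (⇑q7) (-u) = Cfsg.reflectionMatrix (⇑q7) u := by
  refine Matrix.ext_of_mulVec_single fun i => ?_
  rw [CfsgLib.TTRefl3.refl_mulVec, CfsgLib.TTRefl3.refl_mulVec, QuadraticMap.map_neg,
    QuadraticMap.polar_neg_left, mul_neg, neg_smul_neg]

theorem rfx_range : Set.range rfx = Cfsg.reflectionsOfNorm (⇑q7) 1 := by
  ext g
  constructor
  · rintro ⟨i, rfl⟩
    exact ⟨lvec i, lvec_norm i, rfl⟩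
  · rintro ⟨v, hv, hg⟩
    have hv' := hv
    rw [q7_apply] at hv'
    have h := (Model.allBelow_iff _ _).1 vecs_all_check (vcode v) (vcode_lt v)
    simp only [Bool.or_eq_true, dig_vcode, Bool.not_eq_true', decide_eq_false_iff_not,
      List.contains_iff_mem, hv', not_true_eq_false, false_or] at h
    obtain ⟨w, hw, hmem⟩ : ∃ w : Fin 7 → ZMod 3, (w = v ∨ w = -v) ∧ vcode w ∈ Data.vecs :=
      h.elim (fun h => ⟨v, Or.inl rfl, h⟩) fun h => ⟨-v, Or.inr rfl, h⟩
    obtain ⟨i, hi, e⟩ := List.mem_iff_getElem.1 hmem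
    have hi' : i < 351 := vecs_len ▸ hi
    have ew : lvec i = w := vcode_inj (by
      rw [lvec_code ⟨i, hi'⟩, List.getD_eq_getElem _ _ hi, e])
    refine ⟨⟨i, hi'⟩, Subtype.ext (Units.ext ?_)⟩
    rw [hg, rfx, CfsgLib.TTRefl3.refl_coe, show lvec ((⟨i, hi'⟩ : Fin 351) : ℕ) = w from ew]
    rcases hw with rfl | rfl
    · rfl
    · exact rmat_neg v

theorem rfx_inj : Function.Injective rfx := by
  intro i j h
  have e : Cfsg.reflectionMatrix (⇑q7) (lvec i) = Cfsg.reflectionMatrix (⇑q7) (lvec j) :=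
    congrArg (fun g : ↥(Cfsg.isometryGroup (ZMod 3) (⇑q7)) =>
      ((g : GL (Fin 7) (ZMod 3)) : Matrix (Fin 7) (Fin 7) (ZMod 3))) h
  have e2 := congrArg (fun M => Matrix.mulVec M (lvec j)) e
  simp only [CfsgLib.TTRefl3.refl_self q7 (lvec_ne j), sref_eq (lvec_norm i)] at e2
  -- the second vector is a multiple of the first
  have e3 : ∀ k : Fin 7, lvec j k = ip (lvec i) (lvec j) * lvec i k := fun k => by
    have e4 := congrFun e2 k
    have key : ∀ a b : ZMod 3, a - 2 * b = -a → a = b := by decide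
    refine key _ _ ?_
    simpa only [sref, mul_assoc, Pi.neg_apply] using e4
  have hc : ∀ c : ZMod 3, c = 0 ∨ c = 1 ∨ c = -1 := by decide
  rcases hc (ip (lvec i) (lvec j)) with hc | hc | hc
  · exfalso
    refine lvec_ne j ?_
    rw [show lvec j = 0 from funext fun k => by rw [e3, hc, zero_mul, Pi.zero_apply],
      QuadraticMap.map_zero]
  · exact lvec_inj (funext fun k => show lvec i k = lvec j k by rw [e3 k, hc, one_mul])
  · exfalso
    have h1 := List.all_eq_true.1 vecs_neg_check i (List.mem_range.2 i.2)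
    have hj : lvec j = -lvec i := funext fun k => by
      rw [e3 k, hc, neg_mul, one_mul, Pi.neg_apply]
    have hm := lvec_code_mem j
    rw [hj] at hm
    simp at h1
    exact h1 hm

theorem polar_refl (u x y : Fin 7 → ZMod 3) (hu : q7 u ≠ 0) :
    QuadraticMap.polar q7 (Matrix.mulVec (Cfsg.reflectionMatrix (⇑q7) u) x)
      (Matrix.mulVec (Cfsg.reflectionMatrix (⇑q7) u) y) = QuadraticMap.polar q7 x y := by
  simp only [QuadraticMap.polar, ← Matrix.mulVec_add, CfsgLib.TTRefl3.map_refl q7 hu]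

theorem refl_conj_mat (u w : Fin 7 → ZMod 3) (hne : q7 u ≠ 0) :
    Cfsg.reflectionMatrix (⇑q7) u * Cfsg.reflectionMatrix (⇑q7) w *
      Cfsg.reflectionMatrix (⇑q7) u =
    Cfsg.reflectionMatrix (⇑q7) (Matrix.mulVec (Cfsg.reflectionMatrix (⇑q7) u) w) := by
  refine Matrix.ext_of_mulVec_single fun j => ?_
  generalize (Pi.single j 1 : Fin 7 → ZMod 3) = x
  have hRR : Matrix.mulVec (Cfsg.reflectionMatrix (⇑q7) u)
      (Matrix.mulVec (Cfsg.reflectionMatrix (⇑q7) u) x) = x := by
    rw [Matrix.mulVec_mulVec, CfsgLib.TTRefl3.refl_mul_self q7 hne, Matrix.one_mulVec]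
  have hm := CfsgLib.TTRefl3.map_refl q7 hne w
  have hp := polar_refl u w (Matrix.mulVec (Cfsg.reflectionMatrix (⇑q7) u) x) hne
  rw [hRR] at hp
  generalize Cfsg.reflectionMatrix (⇑q7) u = R at hRR hm hp ⊢
  rw [← Matrix.mulVec_mulVec, ← Matrix.mulVec_mulVec, CfsgLib.TTRefl3.refl_mulVec q7 w,
    Matrix.mulVec_sub, Matrix.mulVec_smul, hRR, CfsgLib.TTRefl3.refl_mulVec, hm, hp]

theorem vec_all {k : ℕ} (hk : k < 7) : vecBlock k = true := by
  interval_cases k
  exacts [vec_0, vec_1, vec_2, vec_3, vec_4, vec_5, vec_6]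

theorem vecT_eq (i : Fin 351) : Data.vecT i = Data.vecs.getD i 0 := by
  have h := (Model.allBelow_iff _ _).1 link_check i i.2
  simp only [Bool.and_eq_true] at h
  exact Nat.eq_of_beq_eq_true h.2

theorem rfx_conj (k : Fin 7) (i : Fin 351) :
    rfx (gen7 k) * rfx i * (rfx (gen7 k))⁻¹ = rfx (mv k i) := by
  have h := (Model.allBelow_iff _ _).1 (vec_all k.2) i i.2
  have hmv : mvN k i = (mv k i : ℕ) := (mvFun_val k i).symm
  simp only [Bool.or_eq_true] at h
  rw [hmv, vecT_eq, ← lvec_code] at h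
  have h' := h.imp Nat.eq_of_beq_eq_true Nat.eq_of_beq_eq_true
  set u := lvec (gen7 k : ℕ) with hu
  have hu1 : q7 u = 1 := lvec_norm _
  have hw : Cfsg.reflectionMatrix (⇑q7) (Matrix.mulVec (Cfsg.reflectionMatrix (⇑q7) u) (lvec i)) =
      Cfsg.reflectionMatrix (⇑q7) (lvec (mv k i)) := by
    rw [sref_eq hu1]
    rcases h' with h' | h'
    · rw [show sref u (lvec i) = lvec (mv k i) from vcode_inj h']
    · rw [← rmat_neg, show -sref u (lvec i) = lvec (mv k i) from vcode_inj h']
  refine Subtype.ext (Units.ext ?_)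
  exact (refl_conj_mat u (lvec i) (lvec_ne _)).trans hw

theorem rgroup_quot :
    Nonempty (↥(Cfsg.reflectionSubgroup (⇑q7) 1) ⧸
      Subgroup.center ↥(Cfsg.reflectionSubgroup (⇑q7) 1) ≃* ↥(Subgroup.closure (Set.range mv))) := by
  have hm : ∀ i, rfx i ∈ Cfsg.reflectionSubgroup (⇑q7) 1 := fun i =>
    Subgroup.subset_closure (rfx_range ▸ Set.mem_range_self i)
  set x : Fin 351 → ↥(Cfsg.reflectionSubgroup (⇑q7) 1) := fun i => ⟨rfx i, hm i⟩
  have htop : Subgroup.closure (Set.range x) = ⊤ := by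
    refine Subgroup.map_injective (Cfsg.reflectionSubgroup (⇑q7) 1).subtype_injective ?_
    rw [MonoidHom.map_closure, ← MonoidHom.range_eq_map, Subgroup.range_subtype, ← Set.range_comp]
    exact congrArg Subgroup.closure rfx_range
  refine FischerRecog58.quot_range (x := x) (s := gen7)
    (fun i j h => rfx_inj (congrArg Subtype.val h)) htop ?_ fun k i => Subtype.ext (rfx_conj k i)
  rw [eq_top_iff, ← htop, Subgroup.closure_le]
  rintro _ ⟨i, rfl⟩
  refine gens_reach (P := fun i => x i ∈ Subgroup.closure (Set.range (x ∘ gen7)))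
    (fun k => Subgroup.subset_closure ⟨k, rfl⟩) (fun k i hi => ?_) i
  rw [← show x (gen7 k) * x i * (x (gen7 k))⁻¹ = x (mv k i) from Subtype.ext (rfx_conj k i)]
  have hk : x (gen7 k) ∈ Subgroup.closure (Set.range (x ∘ gen7)) :=
    Subgroup.subset_closure ⟨k, rfl⟩
  exact mul_mem (mul_mem hk hi) (inv_mem hk)

theorem center23 : Subgroup.center Cfsg.Spor.Fi23 = ⊥ := by
  have := Fi23.simple
  have := Fi23.finite_fi23
  rcases IsSimpleGroup.eq_bot_or_eq_top_of_normal (Subgroup.center Cfsg.Spor.Fi23) inferInstance with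
    h | h
  · exact h
  · exfalso
    refine cM_not_commute ?_
    exact (Subgroup.mem_center_iff.1 (h ▸ Subgroup.mem_top Fi23.z0) cM).symm

/-- The presented Fi23 is of type M(23). -/
theorem type23 : IsOfTypeM23 Cfsg.Spor.Fi23 D23 := by
  obtain ⟨e⟩ := lgroup_quot
  obtain ⟨f⟩ := rgroup_quot
  exact ⟨center23, Fi23.z0, mem_conjugatesOf_self, cM, cM_mem, cM_not_commute, type22_nbr,
    1, one_ne_zero, q7, q7_nondeg, q7_det, ⟨e.trans f.symm⟩⟩

theorem primitive23 : IsPrimitiveUnderConj D23 := by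
  have := Fi23.finite_fi23
  refine m23_primitive ttg23 (fun a ha b hb => ?_) type23
  exact isConj_iff.1 ((isConj_iff.2 (isConj_iff.1 ha)).symm.trans (isConj_iff.2 (isConj_iff.1 hb)))

end CfsgLib.Fi23Type61
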